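import Cfsg.Agent.H704.S8.Defs3
import Cfsg.Agent.H424.DegTools
import Cfsg.Agent.H681.DegBasic

/-!
# S4908: universe lifting of the row predicates, and transport along isomorphisms of `X` (helper704)

It is enough to prove a row predicate for finite groups in `Type`.
-/

set_option autoImplicit false

namespace Cfsg.Agent.H704.S8

open Cfsg
open Cfsg.Agent.H691.AN (AlmostSimple)

universe u v w

theorem Solv.lift {D : Set ℕ} (h : Solv.{0} D) : Solv.{u} D := by
  intro G _ _ hs hD
  obtain ⟨G', iG, _, ⟨e⟩⟩ := Finite.exists_type_univ_nonempty_mulEquiv.{u, 0} G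
  refine h (G := G') (Group.isSolvable_of_surjective (f := e.toMonoidHom) e.surjective) ?_
  rw [← H424.DegTools.charDegrees_congr e, hD]

theorem almostSimple_map {A : Type u} {B : Type v} [Group A] [Group B] (e : A ≃* B) {S : Subgroup A}
    (h : AlmostSimple A S) : AlmostSimple B (S.map e.toMonoidHom) where
  normal := h.normal.map _ e.surjective
  simple := by
    have := h.simple
    exact (S.equivMapOfInjective e.toMonoidHom e.injective).symm.isSimpleGroup
  nonab := by
    intro hc
    apply h.nonab
    refine ⟨⟨fun a b => ?_⟩⟩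
    have h1 := hc.is_comm.comm (S.equivMapOfInjective e.toMonoidHom e.injective a)
      (S.equivMapOfInjective e.toMonoidHom e.injective b)
    rw [← map_mul, ← map_mul] at h1
    exact (S.equivMapOfInjective e.toMonoidHom e.injective).injective h1
  cent := by
    rw [eq_bot_iff]
    intro x hx
    rw [Subgroup.mem_centralizer_iff] at hx
    have h1 : e.symm x ∈ Subgroup.centralizer (S : Set A) := by
      rw [Subgroup.mem_centralizer_iff]
      intro y hy
      have h2 := hx (e y) ⟨y, hy, rfl⟩
      apply e.injective
      rw [map_mul, map_mul, e.apply_symm_apply]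
      exact h2
    rw [h.cent, Subgroup.mem_bot] at h1
    rw [Subgroup.mem_bot]
    rw [← e.apply_symm_apply x, h1, map_one]

theorem Soc1.lift {D : Set ℕ} {X : Type v} [Group X] (h : Soc1.{0} D X) : Soc1.{u} D X := by
  intro A _ _ S hA hD
  obtain ⟨B, iB, _, ⟨e⟩⟩ := Finite.exists_type_univ_nonempty_mulEquiv.{u, 0} A
  obtain ⟨f⟩ := h (A := B) (almostSimple_map e hA) (by rw [← H424.DegTools.charDegrees_congr e]; exact hD)
  exact ⟨(S.equivMapOfInjective e.toMonoidHom e.injective).trans f⟩

theorem Soc2.lift {D : Set ℕ} (h : Soc2.{0} D) : Soc2.{u} D := by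
  intro Y _ _ hD W hW hne hmin hna
  obtain ⟨Z, iZ, _, ⟨e⟩⟩ := Finite.exists_type_univ_nonempty_mulEquiv.{u, 0} Y
  have h1 := h (Y := Z) (by rw [← H424.DegTools.charDegrees_congr e]; exact hD) (W.map e.toMonoidHom)
    (hW.map _ e.surjective) (by
      intro h2
      apply hne
      rw [Subgroup.map_eq_bot_iff_of_injective _ e.injective] at h2
      exact h2)
    (by
      intro K hK hKW
      have h3 : K.comap e.toMonoidHom ≤ W := by
        intro x hx
        obtain ⟨y, hy, hyx⟩ := hKW (show e x ∈ K from hx)
        have : y = x := e.injective hyx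
        rwa [← this]
      have h4 : (K.comap e.toMonoidHom).map e.toMonoidHom = K :=
        Subgroup.map_comap_eq_self_of_surjective e.surjective K
      rcases hmin _ (hK.comap _) h3 with h5 | h5
      · left
        rw [← h4, h5, Subgroup.map_bot]
      · right
        rw [← h4, h5])
    (by
      intro hc
      apply hna
      refine ⟨⟨fun a b => ?_⟩⟩
      have h2 := hc.is_comm.comm (W.equivMapOfInjective e.toMonoidHom e.injective a)
        (W.equivMapOfInjective e.toMonoidHom e.injective b)
      rw [← map_mul, ← map_mul] at h2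
      exact (W.equivMapOfInjective e.toMonoidHom e.injective).injective h2)
  exact (W.equivMapOfInjective e.toMonoidHom e.injective).isSimpleGroup

theorem Chief.lift {c : ℕ} {D : Set ℕ} {X : Type v} [Group X] (h : Chief.{0} c D X) : Chief.{u} c D X := by
  intro Λ _ _ ρ hx x
  obtain ⟨M, iM, _, ⟨e⟩⟩ := Finite.exists_type_univ_nonempty_mulEquiv.{u, 0} Λ
  let iC : CommGroup M := { iM with
    mul_comm := fun a b => by
      apply e.symm.injective
      rw [map_mul, map_mul, mul_comm] }
  have key := h M ((MulAut.congr e).toMonoidHom.comp ρ) (fun y hy => by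
    obtain ⟨T, h1, h2, h3, h4⟩ := hx (e.symm y) (by
      intro h0
      apply hy
      rw [← e.apply_symm_apply y, h0, map_one]
      )
    refine ⟨T, fun g => (h1 g).trans ?_, h2, h3, h4⟩
    have e1 : ((MulAut.congr e).toMonoidHom.comp ρ) g y = e (ρ g (e.symm y)) := rfl
    rw [e1]
    constructor
    · intro h5
      rw [h5, e.apply_symm_apply]
    · intro h5
      apply e.injective
      rw [h5, e.apply_symm_apply])
  have h1 := key (e x)
  apply e.injective
  rw [h1]
  exact (map_one e).symm

theorem commutator_eq_top_of_equiv {A : Type u} {B : Type v} [Group A] [Group B] (e : A ≃* B)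
    (h : commutator A = ⊤) : commutator B = ⊤ := by
  have h1 : commutator B = (commutator A).map e.toMonoidHom := by
    rw [commutator_def, commutator_def, Subgroup.map_commutator, Subgroup.map_top_of_surjective _ e.surjective]
  rw [h1, h, Subgroup.map_top_of_surjective _ e.surjective]

theorem Cover3.lift {c : ℕ} {D : Set ℕ} {X : Type v} [Group X] (h : Cover3.{0} c D X) : Cover3.{u} c D X := by
  intro N _ _ V iV r hr hV hc hp hX i hi
  obtain ⟨M, iM, _, ⟨e⟩⟩ := Finite.exists_type_univ_nonempty_mulEquiv.{u, 0} N
  have hn : (V.map e.toMonoidHom).Normal := iV.map _ e.surjective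
  have e1 := V.equivMapOfInjective e.toMonoidHom e.injective
  obtain ⟨f⟩ := hX
  obtain ⟨χ, d, h1, ⟨v, hv, hvne⟩, h3, h4⟩ := h (N := M) (V.map e.toMonoidHom) r hr
    ((Nat.card_congr e1.toEquiv).symm.trans hV)
    (by
      rintro _ ⟨y, hy, rfl⟩
      rw [Subgroup.mem_center_iff]
      intro g
      have h2 := Subgroup.mem_center_iff.1 (hc hy) (e.symm g)
      show g * e y = e y * g
      have h3 := congrArg e h2
      rwa [map_mul, map_mul, e.apply_symm_apply] at h3)
    (commutator_eq_top_of_equiv e hp) ⟨(QuotientGroup.congr V (V.map e.toMonoidHom) e rfl).symm.trans f⟩ i hi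
  refine ⟨χ ∘ e, d, Characters.Core.isIrr_comp e.toMonoidHom e.surjective h1, ?_, ?_, h4⟩
  · obtain ⟨y, hy, rfl⟩ := hv
    refine ⟨y, hy, ?_⟩
    show χ (e y) ≠ χ (e 1)
    rw [map_one]
    exact hvne
  · show χ (e 1) = d
    rw [map_one]
    exact h3

/-- a row for `Type` gives the row in all universes -/
theorem Row3.lift {c : ℕ} {X : Type v} [Group X] (R : Row3.{0} c X)
    (mult : ∀ {N : Type u} [Group N] [Finite N] (V : Subgroup N) [V.Normal], V ≤ Subgroup.center N → commutator N = ⊤ →
      Nonempty ((N ⧸ V) ≃* X) → IsCyclic V) : Row3.{u} c X where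
  out := R.out
  solv := fun D hD => Solv.lift (R.solv D hD)
  soc1 := fun D hD => Soc1.lift (R.soc1 D hD)
  soc2 := fun D hD => Soc2.lift (R.soc2 D hD)
  chief := fun D hD => Chief.lift (R.chief D hD)
  cover := fun D hD => Cover3.lift (R.cover D hD)
  mult := mult

end Cfsg.Agent.H704.S8
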